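import Cfsg.Agent.H621.F4T.Row

/-!
# S2464 / S2452 / S4173: the row `F₄(2)` in the forms `PP` and `Row3` (helper621)
-/

set_option autoImplicit false

namespace Cfsg.Agent.H621.F4T

open Cfsg.Lie Cfsg.Agent.H335.FT

universe u

/-- `PP` for `F₄(2)` (one class of elements of order 13) -/
theorem pp_two : Cfsg.Agent.H494.TC.PP GF :=
  ⟨x13, by rw [orderOf_x13]; norm_num, by rw [orderOf_x13]; norm_num, fun _ hg => all_two hg⟩

/-- `PP` for `F₄(2)`, over any field with two elements -/
theorem pp_F4_two {K : Type u} [Field K] (hK : Nat.card K = 2) :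
    Cfsg.Agent.H494.TC.PP ↥(chevF4.group K) := by
  have : Finite K := Nat.finite_of_card_ne_zero (by rw [hK]; norm_num)
  let _ : Fintype K := Fintype.ofFinite K
  have hc : Fintype.card K = Fintype.card (ZMod 2) := by
    rw [ZMod.card, ← Nat.card_eq_fintype_card, hK]
  let e := Cfsg.Agent.H64.ChevField.groupCongr (FiniteField.ringEquivOfCardEq hc) chevF4
  exact @Cfsg.Agent.H494.TC.PP.of_equiv _ (Subgroup.toGroup _) _ (Subgroup.toGroup _) e pp_two

theorem row3_of {G : Type*} [Group G] {x c : G} (hp : (orderOf x).Prime) (h6 : Nat.Coprime (orderOf x) 6)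
    (h2 : ∀ g : G, g ≠ 1 → ∃ u v : G, g = (u * x * u⁻¹) * (v * x * v⁻¹)) (hc : c * x * c⁻¹ ≠ x) :
    Cfsg.Agent.H210.TC.Row3 G :=
  ⟨x, x, hp, h6, hp, h6, h2, Cfsg.Agent.H494.TC.three_of h2 ⟨c, hc⟩⟩

/-- `Row3` for `F₄(2)` -/
theorem row3_two : Cfsg.Agent.H210.TC.Row3 GF := by
  refine @row3_of GF (Subgroup.toGroup _) x13 (wd nw) (by rw [orderOf_x13]; norm_num) (by rw [orderOf_x13]; norm_num)
    (fun _ hg => all_two hg) ?_
  intro h
  have h1 := conj_x13.symm.trans h
  have h2 : x13 = 1 := by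
    rw [pow_two, mul_eq_left] at h1
    exact h1
  have h3 := orderOf_x13
  rw [h2, orderOf_one] at h3
  omega

/-- `Row3` for `F₄(2)`, over any field with two elements -/
theorem row3_F4_two {K : Type u} [Field K] (hK : Nat.card K = 2) :
    Cfsg.Agent.H210.TC.Row3 ↥(chevF4.group K) := by
  have : Finite K := Nat.finite_of_card_ne_zero (by rw [hK]; norm_num)
  let _ : Fintype K := Fintype.ofFinite K
  have hc : Fintype.card K = Fintype.card (ZMod 2) := by
    rw [ZMod.card, ← Nat.card_eq_fintype_card, hK]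
  let e := Cfsg.Agent.H64.ChevField.groupCongr (FiniteField.ringEquivOfCardEq hc) chevF4
  exact @Cfsg.Agent.H210.TC.Row3.of_equiv _ _ (Subgroup.toGroup _) (Subgroup.toGroup _) e row3_two

end Cfsg.Agent.H621.F4T
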